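import Cfsg.Agent.H63.AnDefs2

/-! The section over the symmetric group and the basic facts of case I. -/

set_option autoImplicit false

namespace Cfsg.Agent.H3.AnSec

open Cfsg.Agent.H63 Cfsg.Agent.H63.SL Cfsg.Agent.H63.AN Cfsg.Agent.H7.AA
open Equiv (swap Perm)
open Equiv.Perm (sign)

universe u

variable {G : Type u} [Group G] {α : Type} [Fintype α] [DecidableEq α]
  {ψ : alternatingGroup α →* G} {t : G} {j : Perm α →* G}

theorem uniq (b : Bs ψ t) {x : G} {ρ τ : Perm α} (h1 : Acts ψ x ρ) (h2 : Acts ψ x τ) : ρ = τ :=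
  h1.uniq (by have := b.nine; omega) b.inj h2

theorem sec0 (b : Bs ψ t) {d : G} {ρ : Perm α} (c : Commute d t) (dd : d * d = 1) (a : Acts ψ d ρ)
    (s : sign ρ ≠ 1) : ∃ j, Sec ψ t j ∧ j ρ = d := by
  have rr : ρ * ρ = 1 := uniq b (a.mul a) (dd ▸ acts_one)
  have ri := inv_eq_of_mul_eq_one_right rr
  have r2 : ∀ x, ρ * (ρ * x) = x := fun x => by rw [← mul_assoc, rr, one_mul]
  replace s := (Int.units_eq_one_or _).resolve_left s
  have k : ∀ σ, sign σ = 1 → d * ev ψ σ = ev ψ (ρ * σ * ρ) * d := fun σ h =>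
    mul_inv_eq_iff_eq_mul.1 (by rw [a σ h, ri])
  have ct : ∀ σ, Commute (ev ψ σ) t := fun σ => (KA_ev b.tK σ).symm
  refine ⟨MonoidHom.mk' (fun σ => if sign σ = 1 then ev ψ σ else ev ψ (σ * ρ) * d) fun σ τ => ?_,
    ⟨fun σ h => if_pos h, fun σ => ?_, fun σ => ?_⟩, by simp [s, rr, ev_one]⟩
  · rcases Int.units_eq_one_or (sign σ) with h | h <;>
      rcases Int.units_eq_one_or (sign τ) with h' | h' <;> simp only [map_mul, h, h'] <;>
      norm_num
    · exact ev_mul h h'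
    · rw [← mul_assoc, ← ev_mul h (by simp [h', s]), mul_assoc σ]
    · rw [mul_assoc (ev _ _), k τ h', ← mul_assoc, ← ev_mul (by simp [h, s]) (by simp [h', s])]
      simp only [mul_assoc, r2]
    · rw [mul_assoc (ev _ _), ← mul_assoc d, k _ (by simp [h', s]), mul_assoc (ev _ _), dd, mul_one,
        ← ev_mul (by simp [h, s]) (by simp [h', s])]
      simp only [mul_assoc, r2, rr, mul_one]
  · show Commute (ite _ _ _) t
    split_ifs
    exacts [ct σ, (ct _).mul_left c]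
  · show Acts ψ (ite _ _ _) σ
    split_ifs with h
    · exact acts_ev h
    · have := (acts_ev (ψ := ψ) (σ := σ * ρ)
        (by simp [(Int.units_eq_one_or _).resolve_left h, s])).mul a
      rwa [mul_assoc σ, rr, mul_one] at this

theorem sec : SecStmt.{u} := fun _ _ b _ _ _ _ => sec0 b

theorem sq_of_conj {d : G} (t2 : t * t = 1) (h : IsConj t d) : d * d = 1 := by
  obtain ⟨g, rfl⟩ := isConj_iff.1 h
  rw [conj_mul, t2, mul_one, mul_inv_cancel]

theorem cj1 {x y : G} (g : G) (h : IsConj x y) : IsConj x (g * y * g⁻¹) :=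
  h.trans (isConj_iff.2 ⟨g, rfl⟩)

theorem cj2 {x y : G} (g : G) (h : IsConj (g * x * g⁻¹) y) : IsConj x (g⁻¹ * y * g) := by
  simpa using cj1 g⁻¹ ((isConj_iff.2 ⟨g, rfl⟩).trans h)

theorem cm2 {x y : G} (g : G) (h : Commute y (g * x * g⁻¹)) : Commute (g⁻¹ * y * g) x := by
  simpa [mul_assoc] using h.map (MulAut.conj g⁻¹)

theorem eq2 {x y g : G} : g⁻¹ * y * g = x ↔ y = g * x * g⁻¹ :=
  ⟨fun h => by rw [← h]; group, fun h => by rw [h]; group⟩

theorem p1_cj (h : P1 ψ t) (g : G) : P1 (cj g ψ) (g * t * g⁻¹) := fun _ ρ k =>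
  h _ ρ ⟨cj2 g k.cj, cm2 g k.cm, fun e => k.ne (eq2.1 e), acts_cj.1 k.ac⟩

theorem ci_cj (h : CI ψ t j) (g : G) :
    CI (cj g ψ) (g * t * g⁻¹) ((MulAut.conj g).toMonoidHom.comp j) where
  sec := ⟨fun σ s => by rw [ev_cj, ← h.sec.ev σ s]; rfl, fun σ => (h.sec.cm σ).map (MulAut.conj g),
    fun σ => acts_cj.2 ((eq2.2 rfl : _ = j σ).symm ▸ h.sec.ac σ)⟩
  p1 := p1_cj h.p1 g
  cj a b n := (MulAut.conj g).toMonoidHom.map_isConj (h.cj a b n)
  i0 a b n c := h.i0 a b n (by simpa [mul_assoc] using cj2 g c)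
  dm a b n e h1 h2 h3 := (h.dm a b n _ (cj2 g h1) (cm2 g h2) (cm2 g h3)).imp eq2.1
    fun ⟨c, d, n, e⟩ => ⟨c, d, n, eq2.1 e⟩

theorem exists_two (h : 9 ≤ Fintype.card α) (a b : α) :
    ∃ c d, c ≠ d ∧ c ≠ a ∧ c ≠ b ∧ d ≠ a ∧ d ≠ b := by
  have h1 : 1 < ({a, b}ᶜ : Finset α).card := by
    have := Finset.card_le_two (a := a) (b := b)
    rw [Finset.card_compl]; omega
  obtain ⟨c, hc, d, hd, n⟩ := Finset.one_lt_card.1 h1
  simp only [Finset.mem_compl, Finset.mem_insert, Finset.mem_singleton, not_or] at hc hd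
  exact ⟨c, d, n, hc.1, hc.2, hd.1, hd.2⟩

theorem ci0 : Ci0Stmt.{u} := by
  rintro G _ _ α _ _ ψ t b k - p ⟨d, ρ, h⟩
  obtain ⟨a0, b0, n0, rfl⟩ := p d ρ h
  obtain ⟨j, s, rfl⟩ := sec0 b h.cm (sq_of_conj b.t2 h.cj) h.ac (by simp [Equiv.Perm.sign_swap n0])
  have c1 : ∀ a b, a ≠ b → IsConj t (j (swap a b)) := fun a b n =>
    h.cj.trans (j.map_isConj (Equiv.Perm.isConj_swap n0 n))
  have at1 := acts_of_KA b.tK
  have i0 : ∀ a b, a ≠ b → ¬ IsConj t (t * j (swap a b)) := fun a e n c => by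
    obtain ⟨a', e', n', m1, m2, m3, m4⟩ := exists_two b.nine a e
    have c2 : IsConj t (t * j (swap a' e')) := by
      obtain ⟨σ, hσ⟩ := isConj_iff.1 (Equiv.Perm.isConj_swap n n')
      have := cj1 (j σ) c
      rwa [← conj_mul, (s.cm σ).eq, mul_inv_cancel_right, ← map_inv, ← map_mul, ← map_mul, hσ] at this
    obtain ⟨g, hg⟩ := isConj_iff.1 (c1 a e n)
    have ns : swap a' e' ≠ swap a e := fun x => by
      have := DFunLike.congr_fun x a'
      rw [Equiv.swap_apply_left, Equiv.swap_apply_of_ne_of_ne m1 m2] at this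
      exact n' this.symm
    have cs : Commute (j (swap a' e')) (j (swap a e)) := Commute.map (by
      rw [Commute, SemiconjBy, Equiv.mul_swap_eq_swap_mul,
        Equiv.swap_apply_of_ne_of_ne m1.symm m3.symm, Equiv.swap_apply_of_ne_of_ne m2.symm m4.symm]) j
    have key : ∀ y τ ρ, IsConj t y → Commute y (j (swap a e)) → Acts ψ y τ → τ ≠ swap a e →
        Acts ψ (g⁻¹ * y * g) ρ → sign ρ = -1 := fun y τ ρ h1 h2 h3 h4 h5 =>
      (p _ ρ ⟨by simpa using cj1 g⁻¹ h1, cm2 g (hg ▸ h2),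
        fun x => h4 (uniq b h3 (by rw [eq2.1 x, hg]; exact s.ac _)), h5⟩).sign_eq
    obtain ⟨ρ1, h1⟩ := k.act _ (cm2 g (hg ▸ (s.cm _).symm))
    obtain ⟨ρ2, h2⟩ := k.act _ (cm2 g (hg ▸ cs))
    have e1 := key _ _ _ (IsConj.refl t) (s.cm _).symm at1 (fun x => n (Equiv.swap_eq_one_iff.1 x.symm)) h1
    have e2 := key _ _ _ (c1 _ _ n') cs (s.ac _) ns h2
    have e3 := key _ _ (ρ1 * ρ2) c2 ((s.cm _).symm.mul_left cs) (at1.mul (s.ac _)) (by rwa [one_mul])
      (by simpa [mul_assoc] using h1.mul h2)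
    rw [map_mul, e1, e2] at e3
    exact absurd e3 (by decide)
  have ci : CI ψ t j := ⟨s, p, c1, i0, fun a a' n e h1 h2 h3 => (_root_.em _).imp_right fun ne => by
    obtain ⟨ρ, hρ⟩ := k.act e h2
    obtain ⟨c, d, n', rfl⟩ := p e ρ ⟨h1, h2, ne, hρ⟩
    have kK : e * (j (swap c d))⁻¹ ∈ KA ψ := Acts.KA (by simpa using hρ.mul (s.ac (swap c d)).inv)
    have c2 : Commute (swap c d) (swap a a') := uniq b (hρ.mul (s.ac _)) (h3.eq ▸ (s.ac _).mul hρ)
    have c3 : Commute (e * (j (swap c d))⁻¹) (j (swap c d)) := by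
      have := Commute.mul_right (KA_ev kK (swap c d * swap a a')) (h3.mul_left (c2.map j).inv_left)
      rwa [← s.ev _ (by simp [Equiv.Perm.sign_swap n, Equiv.Perm.sign_swap n']), ← map_mul,
        Equiv.mul_swap_mul_self] at this
    have h4 := sq_of_conj b.t2 h1
    have h5 := b.r2 _ kK (h2.mul_left (s.cm _).inv_left) ⟨1, by
      rwa [← inv_mul_cancel_right e (j (swap c d)), ← pow_two, c3.mul_pow, ← map_pow, pow_two (swap c d),
        Equiv.swap_mul_self, map_one, mul_one] at h4⟩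
    refine ⟨c, d, n', mul_inv_eq_one.1 (h5.resolve_right fun x => i0 c d n' ?_)⟩
    rwa [← mul_inv_eq_iff_eq_mul.1 x]⟩
  exact ⟨j, ci, ci_cj ci⟩

end Cfsg.Agent.H3.AnSec
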