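import Cfsg.Agent.H49.Large
import Cfsg.Agent.H52.FStar

/-! `Q = F*(C_G(z))` viewed inside `G`. -/

namespace Cfsg.Agent.H3
open Subgroup Cfsg

variable {G : Type*} [Group G]

/-- `F*(C_G(z))` as a subgroup of `G`. -/
abbrev fsC (z : G) : Subgroup G :=
  (generalizedFittingSubgroup ↥(centralizer ({z} : Set G))).map (centralizer ({z} : Set G)).subtype

theorem fsC_le (z : G) : fsC z ≤ centralizer ({z} : Set G) := map_subtype_le _

theorem fsC_norm (z : G) : centralizer ({z} : Set G) ≤ normalizer (fsC z : Set G) :=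
  le_normalizer.trans (H52.normalizer_le_normalizer_map_fstar _)

theorem fsC_cent [Finite G] (z : G) :
    centralizer ({z} : Set G) ⊓ centralizer (fsC z : Set G) ≤ fsC z := by
  rintro x ⟨hx, hx'⟩
  refine ⟨⟨x, hx⟩, H52.centralizer_fstar_le ?_, rfl⟩
  intro y hy
  exact Subtype.ext (hx' y ⟨y, hy, rfl⟩)

theorem mem_fsC [Finite G] (z : G) : z ∈ fsC z :=
  fsC_cent z ⟨mem_centralizer_singleton_iff.2 rfl, fun y hy =>
    mem_centralizer_singleton_iff.1 (fsC_le z hy)⟩

theorem cent_fsC_le [Finite G] (z : G) : centralizer (fsC z : Set G) ≤ fsC z := fun x hx =>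
  fsC_cent z ⟨mem_centralizer_singleton_iff.2 (hx z (mem_fsC z)).symm, hx⟩

theorem fsC_cj (z g : G) : (fsC z).map (MulAut.conj g).toMonoidHom = fsC (g * z * g⁻¹) := by
  have e := H49.cj_centralizer_singleton z g
  let φ : ↥(centralizer ({z} : Set G)) ≃* ↥(centralizer ({g * z * g⁻¹} : Set G)) :=
    (equivMapOfInjective _ (MulAut.conj g).toMonoidHom (MulAut.conj g).injective).trans
      (MulEquiv.subgroupCongr e)
  rw [fsC, fsC, ← H52.map_fstar_equiv φ, map_map, map_map]
  rfl

theorem LX_fsC [Finite G] {z : G} (hz : orderOf z = 2)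
    (hE : IsExtraspecial 2 ↥(generalizedFittingSubgroup ↥(centralizer ({z} : Set G)))) :
    H49.LX (fsC z) z where
  toXS := H49.XS_of_mem ((H49.isExtraspecial_map_iff (subtype_injective _)).2 hE) (mem_fsC z)
    (H49.orderOf_two_iff.1 hz).1 fun x hx => mem_centralizer_singleton_iff.1 (fsC_le z hx)
  cQ := cent_fsC_le z
  nz := fsC_norm z

end Cfsg.Agent.H3
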