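import Cfsg.Agent.H97.JmDefs

/-! Project JM, piece P37: the normaliser of a subgroup of order 37 is maximal. -/

set_option autoImplicit false

namespace Cfsg.Agent.H97.JM

open Subgroup

universe u

namespace P37

variable {G : Type u} [Group G]

theorem test : allD (fun n => n % 444 != 0 || n % 23 != 0 || n % 31 != 0 || n / 444 % 37 != 1 ||
    !ok n || n == 86775571046077562880) = true := by decide +kernel

theorem conj_mem {x c g : G} (hc : c ∈ zpowers x) (h : g * x * g⁻¹ ∈ zpowers x) :
    g * c * g⁻¹ ∈ zpowers x := by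
  obtain ⟨k, rfl⟩ := hc
  rw [← conj_zpow]
  exact zpow_mem h k

theorem two {w c : G} (h4 : Commute c (w ^ 4)) (h6 : Commute c (w ^ 6)) : Commute c (w ^ 2) := by
  have e : w ^ 2 = w ^ 6 * (w ^ 4)⁻¹ := by group
  rw [e]
  exact h6.mul_right h4.inv_right

end P37

theorem pP37 (hALLD : ALLD) (hOK : OK.{u}) (hSYL : SYL.{u}) (hPN : PN.{u}) : P37.{u} := by
  intro G _ _ hC ⟨g, w, hg, hw, hgw, h1, h2⟩
  have : Fact (Nat.Prime 37) := ⟨by norm_num⟩
  have hM := (hC.big 37 12 (by simp) g hg).2
  refine ⟨g, hg, fun e => ?_, fun H hH => ?_⟩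
  · rw [e, card_top, hC.card] at hM
    exact absurd hM (by norm_num)
  have gM : g ∈ normalizer ((zpowers g : Subgroup G) : Set G) := le_normalizer (mem_zpowers g)
  have wM : w ∈ normalizer ((zpowers g : Subgroup G) : Set G) :=
    mem_normalizer_fintype fun n hn => P37.conj_mem hn hgw
  have gH := hH.le gM
  have wH := hH.le wM
  by_cases hd : 23 ∣ Nat.card H ∧ 31 ∣ Nat.card H
  · have hp : IsPGroup 37 (zpowers g) := IsPGroup.of_card (n := 1) (by rw [Nat.card_zpowers, hg]; rfl)
    have hi : ¬ 37 ∣ (zpowers g).index := by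
      have := (zpowers g).card_mul_index
      rw [Nat.card_zpowers, hg, hC.card] at this
      rw [show (zpowers g).index = 2345285703948042240 by omega]
      norm_num
    have s := hSYL G 37 (hp.toSylow hi) (normalizer ((zpowers g : Subgroup G) : Set G)) H
      le_normalizer hH.le inf_le_right
    have d := card_dvd_of_le hH.le
    rw [hM] at s d
    have t := hALLD _ P37.test (Nat.card H) (hC.card ▸ H.card_subgroup_dvd_card)
    have o := hOK G hC H
    have d1 := Nat.mod_eq_zero_of_dvd d
    have d2 := Nat.mod_eq_zero_of_dvd hd.1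
    have d3 := Nat.mod_eq_zero_of_dvd hd.2
    simp only [show 37 * 12 = 444 from rfl] at s d1
    simp only [d1, d2, d3, s, o, bne_self_eq_false, Bool.not_true, Bool.false_or, beq_iff_eq] at t
    exact eq_top_of_card_eq H (t.trans hC.card.symm)
  · have k : ∀ c ∈ H, Commute c (w ^ 4) → c ∈ zpowers w := fun c hc e => by
      have e6 := (h2 H gH wH c e (mul_mem (mul_mem hc (pow_mem wH 6)) (inv_mem hc))).resolve_right hd
      refine (h1 H gH wH c hc ?_).resolve_right hd
      rw [(P37.two e e6).eq, mul_inv_cancel_right]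
      exact mem_zpowers _
    have e := hPN G hC g w H hg hw hgw gH wH fun m ⟨m1, m2⟩ => by
      obtain ⟨j, hj⟩ := (mem_normalizer_iff.1 (inv_mem m2) _).1 (mem_zpowers (w ^ 4))
      have e4 : w ^ 4 = ((m * w * m⁻¹) ^ 4) ^ j := by
        rw [conj_pow, conj_zpow, show (w ^ 4) ^ j = m⁻¹ * w ^ 4 * m⁻¹⁻¹ from hj]; group
      obtain ⟨i, hi⟩ := k (m * w * m⁻¹) (mul_mem (mul_mem m1 wH) (inv_mem m1)) (by
        rw [e4]; exact ((Commute.refl _).pow_right 4).zpow_right j)
      refine (h1 H gH wH m m1 ⟨i, ?_⟩).resolve_right hd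
      rw [← conj_pow, ← hi]
      simp only [← zpow_natCast, ← zpow_mul, mul_comm]
    exact absurd (eq_of_le_of_card_ge hH.le (by rw [e, hM])) hH.ne

end Cfsg.Agent.H97.JM
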