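import Cfsg.Agent.H35.RfQ
import Cfsg.Agent.H48.Pack
import Cfsg.Agent.H42.Six

/-! The count of `2 ^ 8` vectors in the code module. -/

set_option autoImplicit false
set_option maxRecDepth 100000

namespace Cfsg.Agent.H35.RF

open Cfsg Subgroup Cfsg.Agent.H42 Cfsg.Agent.H18.Rf
open Cfsg.Agent.H48 (IsWord)
open scoped Pointwise

universe u

namespace Gex

/-- equality modulo the all-one word -/
def eqv (a b : ℕ) : Bool := Nat.beq (Nat.xor a b) 0 || Nat.beq (Nat.xor a b) 16777215

/-- membership in the four-group -/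
def inU (a : ℕ) : Bool := eqv a 0 || eqv a oct0 || eqv a 1351424 || eqv a (Nat.xor oct0 1351424)

/-- the stabiliser of the second octad -/
def L8 : List ℕ := [961365507626256404119956257276790816, 963721886883755259286232606933354528,
  965128854020860192151391391390468128, 972512676110088067912772961567868960,
  976448692869377735270425038196672544, 980224387687010295957922729495201824,
  983548720921252936276249910206105632, 984818244535754528103549039458486304]

/-- the test on code words -/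
noncomputable def tst (n : ℕ) : Bool :=
  iteB (tb n 23) false (allL (fun y => force (Nat.xor n (img y n)) inU) L8)

theorem tst_iff {n : ℕ} : tst n = true ↔ tb n 23 = false ∧ ∀ y ∈ L8, inU (Nat.xor n (img y n)) = true := by
  unfold tst
  cases tb n 23 <;> simp [allL_iff]

theorem cnt_tst : cnt (fun m => force (enc m) tst) 4096 = 256 := by decide +kernel

theorem chkL : ∀ y ∈ L8, inM y = true ∧ fixes oct0 y = true ∧ eqv (img y 1351424) 1351424 = true := by
  decide +kernel

theorem chkE : orbAll (actsOf pmul gensE16) pid 20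
    (fun y => !(eqv (img y 1351424) 1351424) || L8.any (Nat.beq y)) = true := by decide +kernel

theorem mem_UU {G : Type u} [Group G] {z w x : G} (zz : z * z = 1) (ww : w * w = 1)
    (c : w * z = z * w) : x ∈ UU z w ↔ x = 1 ∨ x = z ∨ x = w ∨ x = z * w := by
  have hz : z ∈ UU z w := subset_closure (by simp)
  have hw : w ∈ UU z w := subset_closure (by simp)
  refine ⟨fun h => ?_, ?_⟩
  · have a1 : ∀ y, z * (z * y) = y := fun y => by rw [← mul_assoc, zz, one_mul]
    have a2 : ∀ y, w * (z * y) = z * (w * y) := fun y => by rw [← mul_assoc, c, mul_assoc]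
    have zi : z⁻¹ = z := inv_eq_of_mul_eq_one_right zz
    have wi : w⁻¹ = w := inv_eq_of_mul_eq_one_right ww
    induction h using closure_induction with
    | mem x hx => rcases hx with rfl | rfl <;> simp
    | one => simp
    | mul x y _ _ hx hy =>
      rcases hx with rfl | rfl | rfl | rfl <;> rcases hy with rfl | rfl | rfl | rfl <;>
        simp [mul_assoc, zz, ww, c, a1, a2]
    | inv x _ hx => rcases hx with rfl | rfl | rfl | rfl <;> simp [zi, wi, c]
  · rintro (rfl | rfl | rfl | rfl)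
    exacts [one_mem _, hz, hw, mul_mem hz hw]

variable {G : Type u} [Group G] {V : Subgroup G} {ρ : NN V →* M24} {ψ : Finset GolayPt → G}

theorem mul_eq (g : Gol V ρ ψ) {a b : ℕ} (ha : isCode a = true) (hb : isCode b = true) :
    ψ (toSet (Nat.xor a b)) = ψ (toSet a) * ψ (toSet b) := by
  rw [toSet_xor]; exact g.add _ _ (toSet_mem_codeSets ha) (toSet_mem_codeSets hb)

theorem eq_iff (s : St V ρ) (g : Gol V ρ ψ) {a b : ℕ} (ha : isCode a = true)
    (hb : isCode b = true) : ψ (toSet a) = ψ (toSet b) ↔ eqv a b = true := by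
  have l := isCode_lt (isCode_xor ha hb)
  rw [← mul_inv_eq_one, inv_eq_of_mul_eq_one_right (s.el _ (g.mem _ (toSet_mem_codeSets hb))),
    ← mul_eq g ha hb, g.ker _ (toSet_mem_codeSets (isCode_xor ha hb)), toSet_eq_empty_iff l,
    ← toSet_full, toSet_eq_iff l (by norm_num), eqv, Bool.or_eq_true, beq_iff, beq_iff]

theorem inU_iff (s : St V ρ) (g : Gol V ρ ψ) {a : ℕ} (ha : isCode a = true) :
    ψ (toSet a) ∈ UU (ψ o0) (ψ (toSet 1351424)) ↔ inU a = true := by
  have c0 : isCode oct0 = true := by decide +kernel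
  have c1 : isCode 1351424 = true := by decide +kernel
  have cz : isCode 0 = true := by decide +kernel
  have e0 : ψ (toSet 0) = 1 := (g.ker _ (toSet_mem_codeSets cz)).2 (Or.inl toSet_zero)
  rw [o0, mem_UU (s.el _ (g.mem _ (toSet_mem_codeSets c0))) (s.el _ (g.mem _ (toSet_mem_codeSets c1)))
    (by rw [← mul_eq g c0 c1, ← mul_eq g c1 c0]; rfl), ← mul_eq g c0 c1, ← e0, eq_iff s g ha cz,
    eq_iff s g ha c0, eq_iff s g ha c1, eq_iff s g ha (isCode_xor c0 c1), inU]
  simp only [Bool.or_eq_true, or_assoc]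

theorem act_eq (g : Gol V ρ ψ) {n : NN V} {y : ℕ} (hy : inM y = true) (e : ρ n = toM y) {a : ℕ}
    (ha : isCode a = true) :
    isCode (img y a) = true ∧ n * ψ (toSet a) * (n : G)⁻¹ = ψ (toSet (img y a)) := by
  refine ⟨?_, by rw [g.act n _ (toSet_mem_codeSets ha), e, toM_smul_toSet hy]⟩
  rw [← toSet_mem_codeSets_iff (img_lt (inM_isPerm hy) a), ← toM_smul_toSet hy]
  exact H48.IsWord.smul (toM y).2 (toSet_mem_codeSets ha)

theorem cond_iff (s : St V ρ) (g : Gol V ρ ψ) {a : ℕ} (ha : isCode a = true) :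
    (∀ r ∈ RG V ρ, r * ψ (toSet 1351424) = ψ (toSet 1351424) * r →
      ψ (toSet a) * r * (ψ (toSet a))⁻¹ * r⁻¹ ∈ UU (ψ o0) (ψ (toSet 1351424))) ↔
    ∀ y ∈ L8, inU (Nat.xor a (img y a)) = true := by
  have c1 : isCode 1351424 = true := by decide +kernel
  have key : ∀ (n : NN V) y, inM y = true → ρ n = toM y →
      ((n : G) * ψ (toSet 1351424) = ψ (toSet 1351424) * n ↔ eqv (img y 1351424) 1351424 = true) ∧
      (ψ (toSet a) * n * (ψ (toSet a))⁻¹ * (n : G)⁻¹ ∈ UU (ψ o0) (ψ (toSet 1351424)) ↔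
        inU (Nat.xor a (img y a)) = true) := fun n y hy e => by
    obtain ⟨h1, h2⟩ := act_eq g hy e c1
    obtain ⟨h3, h4⟩ := act_eq g hy e ha
    refine ⟨by rw [← mul_inv_eq_iff_eq_mul, h2, eq_iff s g h1 c1], ?_⟩
    rw [← inU_iff s g (isCode_xor ha h3), mul_eq g ha h3, ← h4,
      inv_eq_of_mul_eq_one_right (s.el _ (g.mem _ (toSet_mem_codeSets ha)))]
    simp only [mul_assoc]
  constructor
  · intro h y hy
    obtain ⟨h1, h2, h3⟩ := chkL y hy
    obtain ⟨n, e⟩ := s.sur (toM y)
    exact (key n y h1 e).2.1 (h n (coe_mem_pre.2 (e ▸ (toM_mem_fixS_iff h1).2 h2))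
      ((key n y h1 e).1.2 h3))
  · intro h r hr c
    obtain ⟨hn, m⟩ := mem_pre.1 hr
    rw [fixS_oct0_eq.1] at m
    obtain ⟨y, hy, e, hp⟩ := forall_gen inM_gensE16 chkE m
    have h1 := (key ⟨r, hn⟩ y hy e.symm).1.1 c
    simp only [h1, Bool.not_true, Bool.false_or, List.any_eq_true, beq_iff] at hp
    obtain ⟨y', h2, rfl⟩ := hp
    exact (key ⟨r, hn⟩ y hy e.symm).2.2 (h y h2)

end Gex

open Gex in
theorem ge (kit : KitGStmt.{u}) : GeStmt.{u} := by
  intro G _ _ V ρ ψ s g
  obtain ⟨-, k1, k2, -⟩ := kit G V ρ ψ s g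
  have c1 : isCode 1351424 = true := by decide +kernel
  have w1 : IsWord (toSet 1351424) := toSet_mem_codeSets c1
  refine ⟨ψ (toSet 1351424), (k1 _ w1).2 (Or.inl ?_), fun h => ?_, ?_⟩
  · rw [o0, toSet_disjoint_iff _ (by norm_num)]; decide +kernel
  · have := (k2 _ w1).1 h
    rw [o0, ← toSet_zero, ← toSet_full, ← toSet_compl, toSet_eq_iff, toSet_eq_iff, toSet_eq_iff,
      toSet_eq_iff] at this
    · revert this; decide +kernel
    all_goals decide +kernel
  have e1 := ncard_codeSets {c | c ∈ codeSets ∧ tst (mask c) = true} tst (fun _ h => h.1)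
    (fun n hn => by
      rw [Set.mem_ofPred_eq, mask_toSet (isCode_lt hn)]
      exact and_iff_right (toSet_mem_codeSets hn))
  rw [cnt_tst] at e1
  rw [show 2 ^ 8 = 256 from rfl, ← e1, ← Set.InjOn.ncard_image (f := ψ)]
  · refine congrArg Set.ncard (Set.ext fun v => ?_)
    constructor
    · rintro ⟨hv, h⟩
      obtain ⟨a, ha, hb, rfl⟩ : ∃ a, isCode a = true ∧ tb a 23 = false ∧ ψ (toSet a) = v := by
        obtain ⟨c, hc, rfl⟩ := g.sur v hv
        have h1 := (mem_codeSets_iff_isCode c).1 hc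
        have cf : isCode 16777215 = true := by decide +kernel
        cases hb : tb (mask c) 23
        · exact ⟨_, h1, hb, by rw [toSet_mask]⟩
        · refine ⟨_, isCode_xor h1 cf, ?_, ?_⟩
          · rw [tb_eq] at hb ⊢
            exact (Nat.testBit_xor _ _ _).trans (by rw [hb]; decide)
          · rw [mul_eq g h1 cf, toSet_mask, toSet_full,
              (g.ker _ univ_mem_codeSets).2 (Or.inr rfl), mul_one]
      exact ⟨_, ⟨toSet_mem_codeSets ha, by
        rw [mask_toSet (isCode_lt ha)]; exact tst_iff.2 ⟨hb, (cond_iff s g ha).1 h⟩⟩, rfl⟩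
    · rintro ⟨c, ⟨hc, h⟩, rfl⟩
      refine ⟨g.mem c hc, ?_⟩
      have := (cond_iff s g ((mem_codeSets_iff_isCode c).1 hc)).2 (tst_iff.1 h).2
      rwa [toSet_mask] at this
  · rintro c ⟨hc, h⟩ c' ⟨hc', h'⟩ e
    have h1 := (mem_codeSets_iff_isCode c).1 hc
    have h2 := (mem_codeSets_iff_isCode c').1 hc'
    rw [← toSet_mask c, ← toSet_mask c', eq_iff s g h1 h2, eqv, Bool.or_eq_true, beq_iff,
      beq_iff] at e
    rcases e with e | e
    · exact mask_injective (Nat.xor_eq_zero_iff.1 e)
    · have h3 := (tst_iff.1 h).1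
      have h4 := (tst_iff.1 h').1
      rw [tb_eq] at h3 h4
      have := Nat.testBit_xor (mask c) (mask c') 23
      rw [h3, h4, show mask c ^^^ mask c' = 16777215 from e] at this
      exact absurd this (by decide)

end Cfsg.Agent.H35.RF
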