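import Cfsg.Agent.H63.BG1

/-! Abelian TI-subgroups of 2-groups. -/

namespace Cfsg.Agent.H3
open Subgroup Cfsg Cfsg.Agent.H63 Cfsg.Agent.H67
open scoped commutatorElement

variable {G : Type*} [Group G] {A B P Q W : Subgroup G}

/-- `A` meets its other conjugates trivially. -/
def IsTISub (A : Subgroup G) : Prop := ∀ h : G, cj h A = A ∨ cj h A ⊓ A = ⊥

theorem IsTISub.cj (h : IsTISub A) (g : G) : IsTISub (cj g A) := by
  intro k
  have e : H63.cj k (H63.cj g A) = H63.cj g (H63.cj (g⁻¹ * k * g) A) := by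
    rw [cj_cj, cj_cj]; congr 1; group
  rw [e, ← cj_inf, cj_inj, cj_eq_bot_iff]
  exact h _

theorem IsTISub.eq_of_inf_ne_bot (h : IsTISub A) {g k : G}
    (hne : H63.cj g A ⊓ H63.cj k A ≠ ⊥) : H63.cj g A = H63.cj k A := by
  have e : H63.cj g A = H63.cj (g * k⁻¹) (H63.cj k A) := by rw [cj_cj]; congr 1; group
  rw [e] at hne ⊢
  exact ((h.cj k) _).resolve_right hne

theorem IsTISub.cent_le (h : IsTISub A) {a : G} (ha : a ∈ A) (h1 : a ≠ 1) : C1[a] ≤ N[A] := by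
  intro g hg
  refine cj_eq_self_iff.1 ((h g).resolve_right (ne_bot_of_mem (x := a) ⟨?_, ha⟩ h1))
  have : g * a * g⁻¹ = a := by rw [mem_centralizer_singleton_iff.1 hg]; group
  rw [← this]; exact conj_mem_cj ha

theorem commutator_sq_left {a b : G} (h : a * ⁅a, b⁆ = ⁅a, b⁆ * a) :
    ⁅a ^ 2, b⁆ = ⁅a, b⁆ ^ 2 := by
  calc ⁅a ^ 2, b⁆ = a * ⁅a, b⁆ * a⁻¹ * ⁅a, b⁆ := by
        simp only [commutatorElement_def, pow_two]; group
    _ = ⁅a, b⁆ ^ 2 := by rw [h, pow_two]; group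

theorem commutator_sq_right {a b : G} (h : b * ⁅a, b⁆ = ⁅a, b⁆ * b) :
    ⁅a, b ^ 2⁆ = ⁅a, b⁆ ^ 2 := by
  calc ⁅a, b ^ 2⁆ = ⁅a, b⁆ * (b * ⁅a, b⁆ * b⁻¹) := by
        simp only [commutatorElement_def, pow_two]; group
    _ = ⁅a, b⁆ ^ 2 := by rw [h, pow_two]; group

theorem ti_norm_aux (hA : ∀ a ∈ A, a ≠ 1 → C1[a] ≤ N[A]) (hB : ∀ b ∈ B, b ≠ 1 → C1[b] ≤ N[B])
    (hi : A ⊓ B = ⊥) (h4A : ∃ a ∈ A, a ^ 2 ≠ 1 ∧ a ^ 4 = 1) (h4B : ∃ b ∈ B, b ^ 2 ≠ 1 ∧ b ^ 4 = 1)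
    (hcA : ⁅A, B⁆ ≤ C[A]) (hcB : ⁅A, B⁆ ≤ C[B]) : A ≤ N[B] := by
  obtain ⟨a₁, ha₁, ha₁2, ha₁4⟩ := h4A
  obtain ⟨b, hb, hb2, hb4⟩ := h4B
  have sw : ∀ x ∈ A, ∀ y ∈ B, ⁅x ^ 2, y⁆ = ⁅x, y ^ 2⁆ := fun x hx y hy => by
    rw [commutator_sq_left (hcA (commutator_mem_commutator hx hy) x hx),
      commutator_sq_right (hcB (commutator_mem_commutator hx hy) y hy)]
  have hs : b ^ 2 ∈ B := pow_mem hb 2
  have hsA : b ^ 2 ∈ N[A] := by
    refine hA _ (pow_mem ha₁ 2) ha₁2 (mem_centralizer_singleton_iff.2 ?_)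
    have := sw (a₁ ^ 2) (pow_mem ha₁ 2) b hb
    rw [← pow_mul, show 2 * 2 = 4 from rfl, ha₁4, commutatorElement_one_left] at this
    exact (commutatorElement_eq_one_iff_mul_comm.1 this.symm).symm
  intro a ha
  have ha2 : a ^ 2 ∈ N[B] := by
    refine hB _ hs hb2 (mem_centralizer_singleton_iff.2 ?_)
    have := sw a ha (b ^ 2) hs
    rw [← pow_mul, show 2 * 2 = 4 from rfl, hb4, commutatorElement_one_right] at this
    exact commutatorElement_eq_one_iff_mul_comm.1 this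
  refine hB _ hs hb2 (mem_centralizer_singleton_iff.2 (commutatorElement_eq_one_iff_mul_comm.1 ?_))
  by_contra hne
  have hiA : ⁅a, b ^ 2⁆ ∈ A := by
    rw [commutatorElement_def, mul_assoc, mul_assoc, ← mul_assoc (b ^ 2)]
    exact mul_mem ha (conj_mem_of_mem_normalizer hsA (inv_mem ha))
  have hbA : b ∈ N[A] := hA _ hiA hne
    (mem_centralizer_singleton_iff.2 (hcB (commutator_mem_commutator ha hs) b hb))
  apply hne
  rw [← sw a ha b hb, ← mem_bot, ← hi]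
  constructor
  · rw [commutatorElement_def, mul_assoc, mul_assoc, ← mul_assoc b]
    exact mul_mem (pow_mem ha 2) (conj_mem_of_mem_normalizer hbA (inv_mem (pow_mem ha 2)))
  · rw [commutatorElement_def]
    exact B.mul_mem (conj_mem_of_mem_normalizer ha2 hb) (B.inv_mem hb)

/-- Two non-elementary TI-subgroups generating a group of class two commute. -/
theorem ti_cent (hA : ∀ a ∈ A, a ≠ 1 → C1[a] ≤ N[A]) (hB : ∀ b ∈ B, b ≠ 1 → C1[b] ≤ N[B])
    (hi : A ⊓ B = ⊥) (h4A : ∃ a ∈ A, a ^ 2 ≠ 1 ∧ a ^ 4 = 1) (h4B : ∃ b ∈ B, b ^ 2 ≠ 1 ∧ b ^ 4 = 1)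
    (hcA : ⁅A, B⁆ ≤ C[A]) (hcB : ⁅A, B⁆ ≤ C[B]) : B ≤ C[A] :=
  le_centralizer_of_inf_eq_bot (ti_norm_aux hA hB hi h4A h4B hcA hcB)
    (ti_norm_aux hB hA (by rwa [inf_comm]) h4B h4A (by rwa [commutator_comm])
      (by rwa [commutator_comm])) hi

theorem exists_order_four_cj (h4A : ∃ a ∈ A, a ^ 2 ≠ 1 ∧ a ^ 4 = 1) (g : G) :
    ∃ a ∈ cj g A, a ^ 2 ≠ 1 ∧ a ^ 4 = 1 := by
  obtain ⟨a, ha, h2, h4⟩ := h4A
  refine ⟨g * a * g⁻¹, conj_mem_cj ha, ?_, by rw [conj_pow, h4]; group⟩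
  rw [conj_pow]
  intro e
  apply h2
  calc a ^ 2 = g⁻¹ * (g * a ^ 2 * g⁻¹) * g := by group
    _ = 1 := by rw [e]; group

theorem IsTISub.cj_cent (h : IsTISub A) (hc : IsMulCommutative A)
    (h4A : ∃ a ∈ A, a ^ 2 ≠ 1 ∧ a ^ 4 = 1) {g k : G}
    (h₁ : ⁅H63.cj g A, H63.cj k A⁆ ≤ C[H63.cj g A]) (h₂ : ⁅H63.cj g A, H63.cj k A⁆ ≤ C[H63.cj k A]) :
    H63.cj k A ≤ C[H63.cj g A] := by
  by_cases hi : H63.cj g A ⊓ H63.cj k A = ⊥
  · exact ti_cent (fun a ha => (h.cj g).cent_le ha) (fun a ha => (h.cj k).cent_le ha) hi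
      (exists_order_four_cj h4A g) (exists_order_four_cj h4A k) h₁ h₂
  · rw [h.eq_of_inf_ne_bot hi]
    exact le_centralizer_iff_isMulCommutative.2 (isMulCommutative_cj_iff.2 hc)

theorem exists_order_four (hA : IsPGroup 2 A) (h : ∃ a ∈ A, a ^ 2 ≠ 1) :
    ∃ a ∈ A, a ^ 2 ≠ 1 ∧ a ^ 4 = 1 := by
  obtain ⟨a, ha, h2⟩ := h
  obtain ⟨k, hk⟩ := hA ⟨a, ha⟩
  have hk' : a ^ 2 ^ k = 1 := by simpa using congrArg Subtype.val hk
  induction k generalizing a with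
  | zero => exact absurd (by rw [pow_zero, pow_one] at hk'; rw [hk', one_pow]) h2
  | succ k ih =>
    by_cases h4 : a ^ 4 = 1
    · exact ⟨a, ha, h2, h4⟩
    · refine ih (a ^ 2) (pow_mem ha 2) (by rwa [← pow_mul]) ?_ (by rw [← pow_mul, ← pow_succ', hk'])
      exact Subtype.ext (by simpa [← pow_mul, ← pow_succ'] using hk')

variable [Finite G]

/-- In a nilpotent group `P`, the normal closure of a non-elementary abelian TI 2-subgroup is abelian. -/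
theorem IsTISub.exists_abelian_normal (h : IsTISub A) (hc : IsMulCommutative A)
    (h4A : ∃ a ∈ A, a ^ 2 ≠ 1 ∧ a ^ 4 = 1) (hP : Group.IsNilpotent P) (hAP : A ≤ P) :
    ∃ W, A ≤ W ∧ W ⊴ P ∧ IsMulCommutative W := by
  let S : Subgroup G → Set (Subgroup G) := fun W => {B | (∃ g ∈ P, B = H63.cj g A) ∧ B ≤ W}
  obtain ⟨W, hAW, ⟨hWP, hWc, hWS⟩, hmax⟩ := exists_maximal_ge
    (fun W => W ≤ P ∧ IsMulCommutative W ∧ W ≤ sSup (S W)) (H := A)
    ⟨hAP, hc, le_sSup ⟨⟨1, one_mem _, (cj_one A).symm⟩, le_rfl⟩⟩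
  refine ⟨W, hAW, ⟨hWP, ?_⟩, hWc⟩
  by_contra hn
  have hlt : P ⊓ N[W] < P := lt_of_le_of_ne inf_le_left (fun e => hn (e ▸ inf_le_right))
  obtain ⟨g, ⟨hgP, hgN⟩, hg⟩ := SetLike.exists_of_lt (H67.lt_inf_normalizer_of_isNilpotent hP hlt)
  have hWM : W ≤ P ⊓ N[W] := le_inf hWP le_normalizer
  have h1 : H63.cj g W ≤ N[W] := (cj_le_of_mem_normalizer hgN hWM).trans inf_le_right
  have h2 : W ≤ N[H63.cj g W] := by
    rw [← cj_normalizer]
    exact hWM.trans ((cj_eq_self hgN).ge.trans (cj_mono inf_le_right))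
  have hW'c : IsMulCommutative (H63.cj g W) := isMulCommutative_cj_iff.2 hWc
  apply hg
  refine ⟨hgP, mem_normalizer_of_cj_le ?_⟩
  rw [cj_le_iff_le_cj_inv]
  refine hWS.trans (sSup_le ?_)
  rintro _ ⟨⟨k, hk, rfl⟩, hkW⟩
  rw [← cj_le_iff_le_cj_inv, cj_cj]
  have hB' : H63.cj (g * k) A ≤ H63.cj g W := by rw [← cj_cj]; exact cj_mono hkW
  have hcent : W ≤ C[H63.cj (g * k) A] := by
    refine hWS.trans (sSup_le ?_)
    rintro _ ⟨⟨l, hl, rfl⟩, hlW⟩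
    refine h.cj_cent hc h4A ?_ ?_
    · refine (commutator_mono hB' hlW).trans ((commutator_le_of_norm_left h2).trans ?_)
      exact (le_centralizer_iff_isMulCommutative.2 hW'c).trans (centralizer_anti hB')
    · refine (commutator_mono hB' hlW).trans ((commutator_le_of_norm_right h1).trans ?_)
      exact (le_centralizer_iff_isMulCommutative.2 hWc).trans (centralizer_anti hlW)
  have := hmax (W ⊔ H63.cj (g * k) A) ⟨sup_le hWP (cj_le_of_mem (mul_mem hgP hk) hAP),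
    H67.isMulCommutative_sup hWc (isMulCommutative_cj_iff.2 hc) hcent, sup_le
      (hWS.trans (sSup_le_sSup fun B hB => ⟨hB.1, hB.2.trans le_sup_left⟩))
      (le_sSup ⟨⟨g * k, mul_mem hgP hk, rfl⟩, le_sup_right⟩)⟩ le_sup_left
  exact le_sup_right.trans this.le

/-- A subgroup centralizing `Q/Φ(Q)` for a self-centralizing `p`-group `Q` is a `p`-group. -/
theorem isPGroup_of_commutator_le_frattiniOf {p : ℕ} [hp : Fact p.Prime] {K : Subgroup G}
    (hQ : IsPGroup p Q) (hK : K ≤ N[Q]) (hC : K ⊓ C[Q] ≤ Q) (h : ⁅Q, K⁆ ≤ frattiniOf Q) :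
    IsPGroup p K := by
  refine isPGroup_of_isPi hp.out fun r hr hd => ?_
  by_contra hne
  obtain ⟨x, hx, ho⟩ := exists_orderOf_eq_prime hr hd
  have hxK : zpowers x ≤ K := zpowers_le.2 hx
  have hx' : IsPiSubgroup {p}ᶜ (zpowers x) := by
    rw [isPi_iff, Nat.card_zpowers, ho]; exact (piNat_prime hr).2 hne
  have := coprime_cent_Phi (hxK.trans hK) (isPi_coprime' hx' (isPi_of_isPGroup hp.out hQ))
    ((commutator_mono le_rfl hxK).trans h)
  have h0 := isPi_eq_bot (isPi_of_le (isPi_of_isPGroup hp.out hQ) ((le_inf hxK this).trans hC)) hx'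
  rw [zpowers_eq_bot] at h0
  rw [h0, orderOf_one] at ho
  exact hr.one_lt.ne ho

/-- Squares of elements of an abelian TI 2-subgroup lie in `O_2(M)` if `F*(M) = O_2(M)`. -/
theorem IsTISub.sq_mem_pcore {M : Subgroup G} (h : IsTISub A) (hc : IsMulCommutative A)
    (hA : IsPGroup 2 A) (hAM : A ≤ M) (hC : M ⊓ C[O[{2}](M)] ≤ O[{2}](M)) {a : G} (ha : a ∈ A) :
    a ^ 2 ∈ O[{2}](M) := by
  by_cases h2 : a ^ 2 = 1
  · rw [h2]; exact one_mem _
  set Q := O[{2}](M) with hQ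
  have hQM : Q ⊴ M := piCoreOf_normalIn _ _
  have hQp : IsPGroup 2 Q := isPGroup_of_isPi Nat.prime_two (isPi_piCoreOf _ _)
  have hPp : IsPGroup 2 ↥(Q ⊔ A) := isPGroup_of_isPi Nat.prime_two (isPi_sup (isPi_piCoreOf _ _)
    (isPi_of_isPGroup Nat.prime_two hA) (Or.inr (hAM.trans hQM.norm)))
  obtain ⟨W, hAW, hWP, hWc⟩ := h.exists_abelian_normal hc (exists_order_four hA ⟨a, ha, h2⟩)
    hPp.isNilpotent le_sup_right
  have hF : frattiniOf Q ⊴ M := (charIn_frattiniOf Q).normalIn_of_normalIn hQM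
  set K := M ⊓ cosetpre (frattiniOf Q) C[Q /ᵍ frattiniOf Q] with hK
  have hKM : K ⊴ M := by
    refine ⟨inf_le_left, le_normalizer_inf le_normalizer ?_⟩
    exact le_norm_cosetpre hF.norm (le_normalizer_centralizer (quo_norms _ hQM.norm))
  have hKc : ⁅Q, K⁆ ≤ frattiniOf Q := by
    rw [commutator_comm, ← quo_cents_iff (inf_le_left.trans hF.norm) (hQM.le.trans hF.norm),
      quo_le_iff (inf_le_left.trans hF.norm)]
    exact inf_le_right
  have hKp := isPGroup_of_commutator_le_frattiniOf hQp (inf_le_left.trans hQM.norm)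
    ((inf_le_inf_right _ inf_le_left).trans hC) hKc
  refine le_piCoreOf hKM (isPi_of_isPGroup Nat.prime_two hKp) ⟨hAM (pow_mem ha 2), ?_⟩
  have hz : zpowers (a ^ 2) ≤ N[frattiniOf Q] := zpowers_le.2 (hF.norm (hAM (pow_mem ha 2)))
  refine (quo_le_iff hz).1 ((quo_cents_iff hz (hQM.le.trans hF.norm)).2 ?_) (mem_zpowers _)
  rw [quo_cents_iff hz (hQM.le.trans hF.norm) |>.symm, quo_zpowers (zpowers_le.1 hz), zpowers_le]
  rintro _ hy
  obtain ⟨q, hq, hqN, rfl⟩ := mem_quo.1 hy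
  symm
  rw [← commutatorElement_eq_one_iff_mul_comm, ← coset_commutator (zpowers_le.1 hz) hqN,
    coset_eq_one_iff (commutator_le_sup' (zpowers_le.1 hz) hqN)]
  have hcW : ⁅a, q⁆ ∈ W := by
    rw [commutatorElement_def, mul_assoc, mul_assoc, ← mul_assoc q]
    exact mul_mem (hAW ha) (hWP.conj_mem (le_sup_left (b := A) hq) (inv_mem (hAW ha)))
  have hcQ : ⁅a, q⁆ ∈ Q := by
    rw [commutatorElement_def]
    exact mul_mem (hQM.conj_mem (hAM ha) hq) (inv_mem hq)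
  rw [commutator_sq_left (comm_of_isMulCommutative hWc (hAW ha) hcW)]
  exact pow_mem_frattiniOf hQp hcQ
where
  commutator_le_sup' {H : Subgroup G} {x y : G} (hx : x ∈ H) (hy : y ∈ H) : ⁅x, y⁆ ∈ H :=
    mul_mem (mul_mem (mul_mem hx hy) (inv_mem hx)) (inv_mem hy)

/-- Conjugates of a non-elementary abelian TI 2-subgroup inside a nilpotent group commute. -/
theorem IsTISub.cj_cent_of_le (h : IsTISub A) (hc : IsMulCommutative A)
    (h4A : ∃ a ∈ A, a ^ 2 ≠ 1 ∧ a ^ 4 = 1) (hP : Group.IsNilpotent P) {g k : G}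
    (hg : H63.cj g A ≤ P) (hk : H63.cj k A ≤ P) : H63.cj k A ≤ C[H63.cj g A] := by
  obtain ⟨W, hAW, hWP, hWc⟩ := (h.cj g).exists_abelian_normal (isMulCommutative_cj_iff.2 hc)
    (exists_order_four_cj h4A g) hP hg
  obtain ⟨W', hAW', hWP', hWc'⟩ := (h.cj k).exists_abelian_normal (isMulCommutative_cj_iff.2 hc)
    (exists_order_four_cj h4A k) hP hk
  refine h.cj_cent hc h4A ?_ ?_
  · refine (commutator_mono hAW hk).trans (hWP.commutator_le.trans ?_)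
    exact (le_centralizer_iff_isMulCommutative.2 hWc).trans (centralizer_anti hAW)
  · refine (commutator_mono hg hAW').trans ((commutator_le_of_norm_right hWP'.norm).trans ?_)
    exact (le_centralizer_iff_isMulCommutative.2 hWc').trans (centralizer_anti hAW')

end Cfsg.Agent.H3
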